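import Cfsg.Agent.H30.ZN.Residual
import Cfsg.Agent.S2947
import Cfsg.Agent.S2954

/-!
Assembly of S0518: the straddling dichotomy and the pair of locals in the odd residual.
-/

set_option autoImplicit false

open Subgroup

namespace Cfsg.Agent.H30.ZN

variable {G : Type*} [Group G] [Finite G]

/-- The centralizer hypothesis in terms of `omegaCenterOf`. -/
theorem centralizer_omegaCenter_le {S : Sylow 2 G}
    (hZ : Subgroup.centralizer {z : G | z ∈ (S : Subgroup G) ∧ z ^ 2 = 1 ∧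
      ∀ s ∈ (S : Subgroup G), s * z = z * s} ≤ Subgroup.normalizer ((S : Subgroup G) : Set G)) :
    Subgroup.centralizer (Cfsg.omegaCenterOf (S : Subgroup G) : Set G) ≤
      Subgroup.normalizer ((S : Subgroup G) : Set G) := by
  refine le_trans (centralizer_le ?_) hZ
  rintro z ⟨hz, hz2, hzc⟩
  exact subset_closure ⟨⟨hz, mem_centralizer_iff.2 hzc⟩, hz2⟩

/-- Either a strongly embedded subgroup or a maximal straddling subgroup. -/
theorem stronglyEmbedded_or_straddle (hL : Cfsg.IsCharacteristicTwoType G) (hO : Cfsg.pCore 2 G = ⊥)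
    (hN : ∀ N : Subgroup G, Cfsg.IsTwoLocal N → Group.IsSolvable N)
    (hZ : ∀ S : Sylow 2 G, Subgroup.centralizer (Cfsg.omegaCenterOf (S : Subgroup G) : Set G) ≤
      Subgroup.normalizer ((S : Subgroup G) : Set G)) :
    (∃ K : Subgroup G, Cfsg.IsStronglyEmbedded K) ∨
      ∃ P₁ P₂ T : Subgroup G, P₁ ≠ P₂ ∧ Cfsg.IsMaximalTwoLocal P₁ ∧ Cfsg.IsMaximalTwoLocal P₂ ∧
        Cfsg.IsSylowTwoIn T P₁ ∧ Cfsg.IsSylowTwoIn T P₂ ∧
        ((Nonempty (↥P₁ ≃* P4) ∧ Nonempty (↥P₂ ≃* P4)) ∨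
          (Nonempty (↥P₁ ≃* P4 × Multiplicative (ZMod 2)) ∧
            Nonempty (↥P₂ ≃* P4 × Multiplicative (ZMod 2)))) := by
  haveI : Fact (Nat.Prime 2) := ⟨Nat.prime_two⟩
  obtain ⟨S⟩ : Nonempty (Sylow 2 G) := Sylow.nonempty
  have hS1 : (S : Subgroup G) ≠ ⊥ := S.ne_bot_of_dvd_card (even_iff_two_dvd.1 hL.1)
  have hJle : Cfsg.thompsonSubgroupOf 2 (S : Subgroup G) ≤ (S : Subgroup G) :=
    Subgroup.map_subtype_le _
  have hJ : IsPGroup 2 ↥(Cfsg.thompsonSubgroupOf 2 (S : Subgroup G)) := S.2.to_le hJle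
  have hJ1 := H74.JB.thompson_ne_bot S.2 hS1
  set M := normalizer (Cfsg.thompsonSubgroupOf 2 (S : Subgroup G) : Set G) with hMdef
  have hM : Cfsg.IsTwoLocal M := ⟨_, hJ, hJ1, rfl⟩
  by_cases hse : Cfsg.IsStronglyEmbedded M
  · exact Or.inl ⟨M, hse⟩
  right
  have hne : (Cfsg.straddlingTwoSubgroups M).Nonempty :=
    Set.nonempty_iff_ne_empty.2 fun h => hse ((S2947.result hL hN hZ hO S M hM le_rfl).2 h)
  obtain ⟨T₁, hT₁, h₁⟩ := Set.exists_max_image (Cfsg.straddlingTwoSubgroups M)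
    Cfsg.maxElemAbelianOrder (Set.toFinite _) hne
  obtain ⟨T₂, ⟨hT₂, ha₂⟩, h₂⟩ := Set.exists_max_image
    {T | T ∈ Cfsg.straddlingTwoSubgroups M ∧
      Cfsg.maxElemAbelianOrder T = Cfsg.maxElemAbelianOrder T₁}
    (fun T => Nat.card ↥(Cfsg.thompsonSubgroupOf 2 T)) (Set.toFinite _) ⟨T₁, hT₁, rfl⟩
  obtain ⟨T, ⟨⟨hT, haT⟩, hjT⟩, h₃⟩ := Set.exists_max_image
    {T | (T ∈ Cfsg.straddlingTwoSubgroups M ∧
      Cfsg.maxElemAbelianOrder T = Cfsg.maxElemAbelianOrder T₁) ∧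
      Nat.card ↥(Cfsg.thompsonSubgroupOf 2 T) = Nat.card ↥(Cfsg.thompsonSubgroupOf 2 T₂)}
    (fun T => Nat.card ↥T) (Set.toFinite _) ⟨T₂, ⟨hT₂, ha₂⟩, rfl⟩
  have hmax : T ∈ Cfsg.maxStraddlingTwoSubgroups M := ⟨hT, fun U hU =>
    ⟨(h₁ U hU).trans haT.ge, fun ha =>
      ⟨(h₂ U ⟨hU, ha.trans haT⟩).trans hjT.ge, fun hj =>
        h₃ U ⟨⟨hU, ha.trans haT⟩, hj.trans hjT⟩⟩⟩⟩
  obtain ⟨P₁, P₂, h⟩ := S2954.result hL hN hZ hO S M hM le_rfl T hmax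
  exact ⟨P₁, P₂, T, h⟩

theorem relIndex_eq_three {P T : Subgroup G} {k n : ℕ} (hT : Cfsg.IsSylowTwoIn T P)
    (hP : Nat.card ↥P = 3 * 2 ^ n) (hk : k = 2 ^ n) : T.relIndex P = 3 ∧ Nat.card ↥T = k := by
  haveI : Fact (Nat.Prime 2) := ⟨Nat.prime_two⟩
  obtain ⟨m, hm⟩ := IsPGroup.iff_card.1 hT.2.1
  have h := Subgroup.relIndex_mul_relIndex (⊥ : Subgroup G) T P bot_le hT.1
  rw [relIndex_bot_left, relIndex_bot_left, hm, hP] at h
  have hr : Nat.Coprime (T.relIndex P) (2 ^ n) :=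
    (Nat.coprime_two_right.2 hT.2.2).pow_right n
  have h3 : T.relIndex P ∣ 3 := hr.dvd_of_dvd_mul_right (Dvd.intro_left _ h)
  have h2 : Nat.Coprime (2 ^ m) 3 := Nat.Coprime.pow_left m (by norm_num)
  have hm' : 2 ^ m ∣ 2 ^ n := h2.dvd_of_dvd_mul_left (Dvd.intro _ h)
  rcases (Nat.dvd_prime Nat.prime_three).1 h3 with e | e
  · exfalso
    rw [e, mul_one] at h
    have := Nat.le_of_dvd (Nat.two_pow_pos n) hm'
    have := Nat.two_pow_pos n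
    omega
  · refine ⟨e, ?_⟩
    rw [e] at h
    omega

theorem inf_eq_of_relIndex {P₁ P₂ T : Subgroup G} (X : Two P₁ P₂ T) (h : T.relIndex P₁ = 3) :
    P₁ ⊓ P₂ = T := by
  have hle : T ≤ P₁ ⊓ P₂ := le_inf X.syl₁.1 X.syl₂.1
  have h' := Subgroup.relIndex_mul_relIndex T (P₁ ⊓ P₂) P₁ hle inf_le_left
  rw [h] at h'
  rcases (Nat.dvd_prime Nat.prime_three).1 (Dvd.intro _ h' : T.relIndex (P₁ ⊓ P₂) ∣ 3) with e | e
  · exact le_antisymm (relIndex_eq_one.1 e) hle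
  · exfalso
    rw [e] at h'
    have h1 : (P₁ ⊓ P₂).relIndex P₁ = 1 := by omega
    exact X.ne (X.C₁.maximal.2 P₂ X.C₂.maximal.1 ((relIndex_eq_one.1 h1).trans inf_le_right)).symm

/-- The two locals of the odd residual. -/
theorem exists_locals {H P₁ P₂ T : Subgroup G} (X : Two P₁ P₂ T)
    (hH : H = closure {g : G | Odd (orderOf g)}) (hc₁ : X.C₁.c ∈ H → X.C₁.c = 1)
    (hc₂ : X.C₂.c ∈ H → X.C₂.c = 1) (hinf : P₁ ⊓ P₂ = T) (hTH : Nat.card ↥(T ⊓ H) = 8) :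
    ∃ M₁ M₂ : Subgroup ↥H, M₁ ≠ M₂ ∧ Cfsg.IsMaximalTwoLocal M₁ ∧ Cfsg.IsMaximalTwoLocal M₂ ∧
      Nonempty (M₁ ≃* Equiv.Perm (Fin 4)) ∧ Nonempty (M₂ ≃* Equiv.Perm (Fin 4)) ∧
      Nat.card ↥(M₁ ⊓ M₂) = 8 := by
  obtain ⟨b, hbV, hbE⟩ := SetLike.not_le_iff_exists.1 X.V₂_not_le
  obtain ⟨b', hbV', hbE'⟩ := SetLike.not_le_iff_exists.1 X.swap.V₂_not_le
  have hb : b ∈ P₁ := X.syl₁.1 (X.V₂_le_T hbV)
  have hb' : b' ∈ P₂ := X.syl₂.1 (X.V_le_T hbV')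
  have hbH : b ∈ H := X.C₂.V_le_H hH hbV
  have hbH' : b' ∈ H := X.C₁.V_le_H hH hbV'
  have hcard : Nat.card ↥(P₁.subgroupOf H ⊓ P₂.subgroupOf H) = 8 := by
    rw [show P₁.subgroupOf H ⊓ P₂.subgroupOf H = (P₁ ⊓ P₂).subgroupOf H from rfl, hinf,
      ← inf_subgroupOf_right, Nat.card_congr (subgroupOfEquivOfLe inf_le_right).toEquiv, hTH]
  have hi₁ := X.C₁.nonempty_iso hH hc₁ hb hbH (X.C₂.sq_V hbV) hbE
  have hi₂ := X.C₂.nonempty_iso hH hc₂ hb' hbH' (X.C₁.sq_V hbV') hbE'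
  refine ⟨P₁.subgroupOf H, P₂.subgroupOf H, fun e => ?_,
    X.C₁.isMaximalTwoLocal_subgroupOf hH hc₁ hb hbH (X.C₂.sq_V hbV) hbE,
    X.C₂.isMaximalTwoLocal_subgroupOf hH hc₂ hb' hbH' (X.C₁.sq_V hbV') hbE', hi₁, hi₂, hcard⟩
  obtain ⟨i⟩ := hi₁
  rw [← e, inf_idem, Nat.card_congr i.toEquiv, Nat.card_perm, Nat.card_fin,
    show Nat.factorial 4 = 24 from rfl] at hcard
  omega

/-- The `TimesPair` data of two cells with nontrivial centres. -/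
theorem timesPair {P₁ P₂ T : Subgroup G} (X : Two P₁ P₂ T) (hc : X.C₁.c ≠ 1)
    (hP : Nat.card ↥P₁ = 48) :
    ∃ z : G, TimesPair P₁ P₂ T X.C₁.V X.C₂.V X.C₁.c z ∧
      ∀ v ∈ X.C₁.V, v ≠ 1 → ∃ g ∈ P₁, g * z * g⁻¹ = v := by
  haveI : Fact (Nat.Prime 2) := ⟨Nat.prime_two⟩
  obtain ⟨z, hz2, hz, hzT⟩ := X.exists_z
  obtain ⟨h3, hT⟩ := relIndex_eq_three (n := 4) (k := 16) X.syl₁ (by rw [hP]; norm_num) (by norm_num)
  have hzm : z ∈ X.C₁.V := (hz ▸ mem_zpowers z : z ∈ X.C₁.V ⊓ X.C₂.V).1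
  have hcV : X.C₁.c ∉ X.C₁.V := fun h => hc (by
    obtain ⟨y, -, hy⟩ := X.C₁.mem_V.1 h
    have h1 : X.C₁.proj (X.C₁.sect y) = 1 := by
      rw [show X.C₁.sect y = ⟨X.C₁.c, X.C₁.c_mem⟩ from Subtype.ext hy, X.C₁.proj_c]
    rw [X.C₁.proj_sect] at h1
    rw [← hy, h1, map_one])
  have hcD := X.c_notMem_sup hc hcV
  have hD : Nat.card ↥(X.C₁.V ⊔ X.C₂.V) = 8 := by
    have h8 := X.card_sup
    have hd := card_dvd_of_le X.sup_le_T
    have hne : Nat.card ↥(X.C₁.V ⊔ X.C₂.V) ≠ 16 := fun e =>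
      hcD ((eq_of_le_of_card_ge X.sup_le_T (by rw [hT, e])).symm ▸ X.c_mem_T)
    rw [hT] at hd
    have := Nat.le_of_dvd (by norm_num) hd
    interval_cases hk : Nat.card ↥(X.C₁.V ⊔ X.C₂.V) <;> omega
  refine ⟨z, ?_, fun v hv hv1 => ?_⟩
  · exact
      { isPGroup := X.syl₁.2.1
        card_T := hT
        card_P₁ := hP
        le_P₁ := X.syl₁.1
        le_P₂ := X.syl₂.1
        inf_eq := inf_eq_of_relIndex X h3
        centralizer_c := X.C₁.centralizer_c hc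
        normalizer_E₁ := X.C₁.normalizer_E
        normalizer_E₂ := by
          have hE : X.C₂.V ⊔ zpowers X.C₁.c = X.C₂.E := by
            refine le_antisymm (sup_le le_sup_left (zpowers_le.2 X.swap.c₂_mem_E₁))
              (sup_le le_sup_left (zpowers_le.2 ?_))
            by_cases h1 : X.C₂.c ∈ X.C₂.V
            · exact mem_sup_left h1
            rcases X.C₂.mem_E.1 (X.swap.c₂_mem_E₁ : X.C₁.c ∈ X.C₂.E) with h2 | h2
            · exact absurd (mem_sup_right h2) hcD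
            · have h3' : X.C₁.c⁻¹ * (X.C₁.c * X.C₂.c) ∈ X.C₂.V ⊔ zpowers X.C₁.c := mul_mem (inv_mem (mem_sup_right (mem_zpowers X.C₁.c) :
                X.C₁.c ∈ X.C₂.V ⊔ zpowers X.C₁.c)) (mem_sup_left h2)
              rwa [inv_mul_cancel_left] at h3'
          rw [hE, X.C₂.normalizer_E]
        orderOf_c := orderOf_eq_prime (by rw [pow_two, X.C₁.sq_c]) hc
        orderOf_z := hz2
        c_mem := X.c_mem_T
        le_V₁ := X.V_le_T
        le_V₂ := X.V₂_le_T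
        card_V₁ := X.C₁.card_V
        card_V₂ := X.C₂.card_V
        sq_V₁ := fun _ hv => X.C₁.sq_V hv
        sq_V₂ := fun _ hv => X.C₂.sq_V hv
        inf_V := hz
        z_central := hzT
        c_central := fun t ht => X.C₁.c_central t (X.syl₁.1 ht)
        card_D := hD
        c_notMem := hcD
        not_commute := X.not_commute hz2 hz hzT
        conj_V₁ := fun _ hv hv1 => X.conj_z hz2 hz hv hv1
        conj_V₂ := fun _ hv hv1 => X.swap.conj_z hz2 (by rw [← hz]; exact inf_comm _ _) hv hv1 }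
  · obtain ⟨g, hg⟩ := X.C₁.exists_conj hzm (fun e => by rw [e, orderOf_one] at hz2; omega) hv hv1
    exact ⟨_, X.C₁.lift_mem g, hg⟩

/-- The case without central factor. -/
theorem card_inf_odd_of_card_eight {H P₁ P₂ T : Subgroup G} (X : Two P₁ P₂ T)
    (hH : H = closure {g : G | Odd (orderOf g)}) (hT : Nat.card ↥T = 8) :
    Nat.card ↥(T ⊓ H) = 8 := by
  haveI : Fact (Nat.Prime 2) := ⟨Nat.prime_two⟩
  have h8 := X.card_sup
  have h1 : Nat.card ↥(X.C₁.V ⊔ X.C₂.V) ≤ Nat.card ↥(T ⊓ H) :=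
    Nat.le_of_dvd Nat.card_pos (card_dvd_of_le (le_inf X.sup_le_T (hH ▸ X.sup_le_odd)))
  have h2 : Nat.card ↥(T ⊓ H) ≤ Nat.card ↥T :=
    Nat.le_of_dvd Nat.card_pos (card_dvd_of_le inf_le_left)
  omega

/-- The case with central factor, the centre lying outside `H`. -/
theorem card_inf_odd_of_notMem {H P₁ P₂ T : Subgroup G} (X : Two P₁ P₂ T)
    (hH : H = closure {g : G | Odd (orderOf g)}) (hT : Nat.card ↥T = 16)
    (hc : X.C₁.c ∉ H) : Nat.card ↥(T ⊓ H) = 8 := by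
  haveI : Fact (Nat.Prime 2) := ⟨Nat.prime_two⟩
  have h8 := X.card_sup
  have h1 : Nat.card ↥(X.C₁.V ⊔ X.C₂.V) ≤ Nat.card ↥(T ⊓ H) :=
    Nat.le_of_dvd Nat.card_pos (card_dvd_of_le (le_inf X.sup_le_T (hH ▸ X.sup_le_odd)))
  have h2 := card_dvd_of_le (inf_le_left : T ⊓ H ≤ T)
  have h3 : Nat.card ↥(T ⊓ H) ≠ 16 := fun e =>
    hc ((eq_of_le_of_card_ge (inf_le_left : T ⊓ H ≤ T) (by rw [hT, e])).ge X.c_mem_T).2
  rw [hT] at h2
  have := Nat.le_of_dvd (by norm_num) h2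
  interval_cases hk : Nat.card ↥(T ⊓ H) <;> omega

end Cfsg.Agent.H30.ZN
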