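import Mathlib

/-!
Data for the case of two `S₄ × C₂` maximal two-locals sharing a Sylow 2-subgroup (S0518).
-/

set_option autoImplicit false

namespace Cfsg.Agent.H30.ZN

variable {G : Type*} [Group G]

/-- Two locals `P₁`, `P₂` of shape `S₄ × C₂` with common Sylow 2-subgroup `T = (V₁ V₂) × ⟨c⟩`,
`c` generating the centre of `P₁`, `z` the common element of `V₁` and `V₂`. -/
structure TimesPair (P₁ P₂ T V₁ V₂ : Subgroup G) (c z : G) : Prop where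
  isPGroup : IsPGroup 2 ↥T
  card_T : Nat.card ↥T = 16
  card_P₁ : Nat.card ↥P₁ = 48
  le_P₁ : T ≤ P₁
  le_P₂ : T ≤ P₂
  inf_eq : P₁ ⊓ P₂ = T
  centralizer_c : Subgroup.centralizer ({c} : Set G) = P₁
  normalizer_E₁ : Subgroup.normalizer ((V₁ ⊔ Subgroup.zpowers c : Subgroup G) : Set G) = P₁
  normalizer_E₂ : Subgroup.normalizer ((V₂ ⊔ Subgroup.zpowers c : Subgroup G) : Set G) = P₂
  orderOf_c : orderOf c = 2
  orderOf_z : orderOf z = 2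
  c_mem : c ∈ T
  le_V₁ : V₁ ≤ T
  le_V₂ : V₂ ≤ T
  card_V₁ : Nat.card ↥V₁ = 4
  card_V₂ : Nat.card ↥V₂ = 4
  sq_V₁ : ∀ v ∈ V₁, v * v = 1
  sq_V₂ : ∀ v ∈ V₂, v * v = 1
  inf_V : V₁ ⊓ V₂ = Subgroup.zpowers z
  z_central : ∀ t ∈ T, Commute t z
  c_central : ∀ t ∈ T, Commute t c
  card_D : Nat.card ↥(V₁ ⊔ V₂) = 8
  c_notMem : c ∉ V₁ ⊔ V₂
  not_commute : ∀ a ∈ V₁, a ∉ Subgroup.zpowers z → ∀ b ∈ V₂, b ∉ Subgroup.zpowers z →
    b * a = a * b * z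
  conj_V₁ : ∀ v ∈ V₁, v ≠ 1 → IsConj z v
  conj_V₂ : ∀ v ∈ V₂, v ≠ 1 → IsConj z v

end Cfsg.Agent.H30.ZN
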