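import Cfsg.Prelude.Def_CaseTheorems
import Cfsg.Agent.H33.ItoNormal
import Mathlib

/-!
A maximal two-local of shape `S₄` or `S₄ × C₂`, described by a split surjection onto `Perm (Fin 4)`
(S0518).
-/

set_option autoImplicit false

open Subgroup
open scoped Pointwise

namespace Cfsg.Agent.H30.ZN

set_option maxRecDepth 100000

abbrev P4 := Equiv.Perm (Fin 4)

theorem k4_mul_aux : ∀ a b : P4, (a * a = 1 ∧ Equiv.Perm.sign a = 1) →
    (b * b = 1 ∧ Equiv.Perm.sign b = 1) →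
    (a * b * (a * b) = 1 ∧ Equiv.Perm.sign (a * b) = 1) := by decide

theorem k4_inv_aux : ∀ a : P4, (a * a = 1 ∧ Equiv.Perm.sign a = 1) → a⁻¹ = a := by decide

/-- The four-group of `Perm (Fin 4)`. -/
def K4 : Subgroup P4 where
  carrier := {y | y * y = 1 ∧ Equiv.Perm.sign y = 1}
  one_mem' := ⟨by simp, by simp⟩
  mul_mem' {a b} ha hb := k4_mul_aux a b ha hb
  inv_mem' {a} ha := by
    show a⁻¹ * a⁻¹ = 1 ∧ Equiv.Perm.sign a⁻¹ = 1
    rw [k4_inv_aux a ha]; exact ha

theorem mem_K4 {y : P4} : y ∈ K4 ↔ y * y = 1 ∧ Equiv.Perm.sign y = 1 := Iff.rfl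

theorem k4_conj : ∀ g y : P4, (y * y = 1 ∧ Equiv.Perm.sign y = 1) →
    (g * y * g⁻¹ * (g * y * g⁻¹) = 1 ∧ Equiv.Perm.sign (g * y * g⁻¹) = 1) := by decide

theorem k4_trans : ∀ v w : P4, (v * v = 1 ∧ Equiv.Perm.sign v = 1) → v ≠ 1 →
    (w * w = 1 ∧ Equiv.Perm.sign w = 1) → w ≠ 1 → ∃ g : P4, g * v * g⁻¹ = w := by decide

theorem k4_self_centralizing : ∀ g : P4, (∀ y : P4, (y * y = 1 ∧ Equiv.Perm.sign y = 1) →
    g * y = y * g) → g * g = 1 ∧ Equiv.Perm.sign g = 1 := by decide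

theorem even_two_cubes : ∀ y : P4, Equiv.Perm.sign y = 1 →
    ∃ u v : P4, u ^ 3 = 1 ∧ v ^ 3 = 1 ∧ u * v = y := by decide

theorem pow_eight : ∀ y : P4, y ^ 8 = 1 → y ^ 4 = 1 := by decide

theorem core_criterion : ∀ y : P4, y ^ 4 = 1 → (∀ g : P4, (y * (g * y * g⁻¹)) ^ 4 = 1) →
    y * y = 1 ∧ Equiv.Perm.sign y = 1 := by decide

theorem card_K4 : Nat.card ↥K4 = 4 := by
  have h : Nat.card {y : P4 // y * y = 1 ∧ Equiv.Perm.sign y = 1} = 4 := by
    rw [Nat.card_eq_fintype_card]; decide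
  exact h

theorem pow_four_of_two_power {y : P4} {k : ℕ} (h : y ^ (2 ^ k) = 1) : y ^ 4 = 1 := by
  obtain ⟨j, -, hj⟩ := (Nat.dvd_prime_pow Nat.prime_two).1 (orderOf_dvd_of_pow_eq_one h)
  have h24 : orderOf y ∣ 24 := by
    have := orderOf_dvd_natCard y
    rwa [Nat.card_perm, Nat.card_fin, show Nat.factorial 4 = 24 from rfl] at this
  rw [hj] at h24
  have hj3 : j ≤ 3 := by
    by_contra hlt
    have : 2 ^ 4 ∣ 24 := (pow_dvd_pow 2 (by omega : 4 ≤ j)).trans h24
    norm_num at this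
  apply pow_eight
  exact orderOf_dvd_iff_pow_eq_one.1 (hj ▸ (pow_dvd_pow 2 hj3 : 2 ^ j ∣ 2 ^ 3))

/-- A subgroup of `Perm (Fin 4)` containing all elements with trivial cube and an odd permutation
is everything. -/
theorem eq_top_of_cubes {R : Subgroup P4} (h : ∀ u : P4, u ^ 3 = 1 → u ∈ R) {w : P4} (hw : w ∈ R)
    (hodd : Equiv.Perm.sign w ≠ 1) : R = ⊤ := by
  have hev : ∀ y : P4, Equiv.Perm.sign y = 1 → y ∈ R := fun y hy => by
    obtain ⟨u, v, hu, hv, rfl⟩ := even_two_cubes y hy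
    exact mul_mem (h u hu) (h v hv)
  refine eq_top_iff.2 fun y _ => ?_
  by_cases hy : Equiv.Perm.sign y = 1
  · exact hev y hy
  · have h1 : Equiv.Perm.sign (y * w) = 1 := by
      rw [map_mul, (Int.units_eq_one_or _).resolve_left hy,
        (Int.units_eq_one_or _).resolve_left hodd]
      rfl
    have h2 := mul_mem (hev _ h1) (inv_mem hw)
    rwa [mul_inv_cancel_right] at h2

theorem k4_comm : ∀ a b : P4, (a * a = 1 ∧ Equiv.Perm.sign a = 1) →
    (b * b = 1 ∧ Equiv.Perm.sign b = 1) → b * a = a * b := by decide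

variable {G : Type*} [Group G]

theorem mem_zpowers_two {c x : G} (h : c * c = 1) (hx : x ∈ zpowers c) : x = 1 ∨ x = c := by
  obtain ⟨k, rfl⟩ := mem_zpowers_iff.1 hx
  have h2 : c ^ (2 : ℤ) = 1 := by rw [zpow_two, h]
  rcases Int.even_or_odd' k with ⟨m, rfl | rfl⟩
  · left; rw [zpow_mul, h2, one_zpow]
  · right; rw [zpow_add_one, zpow_mul, h2, one_zpow, one_mul]

theorem mul_zpow_self_eq {c : G} (h : c * c = 1) (k : ℤ) : (1 : G) = c ^ k * c ^ k := by
  rw [← (Commute.refl c).mul_zpow, h, one_zpow]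

theorem le_normalizer_sup_aux {A B : Subgroup G} {x : G} (hA : x ∈ normalizer (A : Set G))
    (hB : x ∈ normalizer (B : Set G)) : x ∈ normalizer ((A ⊔ B : Subgroup G) : Set G) :=
  Subgroup.normalizer_inf_normalizer_le_normalizer_sup A B ⟨hA, hB⟩

/-- A maximal two-local `P` with central element `c` of order at most two and `P / ⟨c⟩ ≅ S₄`,
split. -/
structure Cell (P : Subgroup G) where
  maximal : Cfsg.IsMaximalTwoLocal P
  c : G
  c_mem : c ∈ P
  c_central : ∀ x ∈ P, Commute x c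
  sq_c : c * c = 1
  proj : ↥P →* P4
  sect : P4 →* ↥P
  proj_sect : ∀ y, proj (sect y) = y
  proj_c : proj ⟨c, c_mem⟩ = 1
  ker : ∀ x : ↥P, proj x = 1 → (x : G) = 1 ∨ (x : G) = c

namespace Cell

variable {P : Subgroup G} (C : Cell P)

/-- The lifted homomorphism into `G`. -/
def lift : P4 →* G := P.subtype.comp C.sect

/-- The four-group of the cell. -/
def V : Subgroup G := K4.map C.lift

/-- The four-group together with the centre. -/
def E : Subgroup G := C.V ⊔ zpowers C.c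

theorem lift_mem (y : P4) : C.lift y ∈ P := (C.sect y).2

theorem lift_injective : Function.Injective C.lift := fun a b h => by
  have := congrArg C.proj (Subtype.ext h : C.sect a = C.sect b)
  rwa [C.proj_sect, C.proj_sect] at this

theorem mem_V {v : G} : v ∈ C.V ↔ ∃ y ∈ K4, C.lift y = v := Subgroup.mem_map

theorem V_le : C.V ≤ P := by
  intro v hv
  obtain ⟨y, -, rfl⟩ := C.mem_V.1 hv
  exact C.lift_mem y

theorem card_V : Nat.card ↥C.V = 4 := by
  rw [V, Subgroup.card_map_of_injective C.lift_injective, card_K4]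

theorem V_ne_bot : C.V ≠ ⊥ := fun h => by
  have := C.card_V
  rw [h, card_bot] at this
  omega

theorem sq_V {v : G} (hv : v ∈ C.V) : v * v = 1 := by
  obtain ⟨y, hy, rfl⟩ := C.mem_V.1 hv
  rw [← map_mul, (mem_K4.1 hy).1, map_one]

theorem isPGroup_V : IsPGroup 2 ↥C.V := fun v =>
  ⟨1, Subtype.ext (by rw [pow_one, Subgroup.coe_pow, pow_two]; exact C.sq_V v.2)⟩

theorem decomp (x : ↥P) : (x : G) = C.lift (C.proj x) ∨ (x : G) = C.lift (C.proj x) * C.c := by
  have h : C.proj ((C.sect (C.proj x))⁻¹ * x) = 1 := by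
    rw [map_mul, map_inv, C.proj_sect, inv_mul_cancel]
  rcases C.ker _ h with h1 | h1 <;> rw [Subgroup.coe_mul, Subgroup.coe_inv, inv_mul_eq_iff_eq_mul] at h1
  · left
    rw [mul_one] at h1
    exact h1
  · right; exact h1

theorem conj_lift (x : ↥P) (y : P4) :
    (x : G) * C.lift y * (x : G)⁻¹ = C.lift (C.proj x * y * (C.proj x)⁻¹) := by
  rcases C.decomp x with h | h <;> rw [h, map_mul, map_mul, map_inv]
  have hc : C.c * C.lift y = C.lift y * C.c := ((C.c_central _ (C.lift_mem y)).eq).symm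
  calc C.lift (C.proj x) * C.c * C.lift y * (C.lift (C.proj x) * C.c)⁻¹
      = C.lift (C.proj x) * (C.c * C.lift y) * C.c⁻¹ * (C.lift (C.proj x))⁻¹ := by group
    _ = C.lift (C.proj x) * C.lift y * (C.lift (C.proj x))⁻¹ := by rw [hc]; group

theorem conj_mem {x v : G} (hx : x ∈ P) (hv : v ∈ C.V) : x * v * x⁻¹ ∈ C.V := by
  obtain ⟨y, hy, rfl⟩ := C.mem_V.1 hv
  exact C.mem_V.2 ⟨_, mem_K4.2 (k4_conj _ y (mem_K4.1 hy)), (C.conj_lift ⟨x, hx⟩ y).symm⟩

theorem le_normalizer_V : P ≤ normalizer (C.V : Set G) := fun x hx => by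
  rw [Subgroup.mem_normalizer_iff]
  intro v
  refine ⟨fun hv => C.conj_mem hx hv, fun hv => ?_⟩
  have h := C.conj_mem (inv_mem hx) hv
  simpa [mul_assoc] using h

theorem isTwoLocal_normalizer {Q : Subgroup G} (hQ : IsPGroup 2 ↥Q) (h1 : Q ≠ ⊥) :
    Cfsg.IsTwoLocal (normalizer (Q : Set G)) := ⟨Q, hQ, h1, rfl⟩

include C in
theorem normalizer_eq {Q : Subgroup G} (hQ : IsPGroup 2 ↥Q) (h1 : Q ≠ ⊥)
    (h : P ≤ normalizer (Q : Set G)) : normalizer (Q : Set G) = P :=
  C.maximal.2 _ (isTwoLocal_normalizer hQ h1) h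

theorem normalizer_V : normalizer (C.V : Set G) = P :=
  C.normalizer_eq C.isPGroup_V C.V_ne_bot C.le_normalizer_V

theorem le_normalizer_zc : P ≤ normalizer (zpowers C.c : Set G) := fun x hx => by
  rw [Subgroup.mem_normalizer_iff]
  intro v
  have hfix : x * C.c * x⁻¹ = C.c := by rw [(C.c_central x hx).eq, mul_inv_cancel_right]
  have hcon : ∀ k : ℤ, x * C.c ^ k * x⁻¹ = C.c ^ k := fun k => by
    rw [← conj_zpow, hfix]
  constructor
  · rintro ⟨k, rfl⟩; exact ⟨k, (hcon k).symm⟩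
  · rintro ⟨k, hk⟩
    refine ⟨k, ?_⟩
    simp only at hk
    rw [← hcon k] at hk
    exact mul_left_cancel (mul_right_cancel hk)

theorem isPGroup_zc : IsPGroup 2 ↥(zpowers C.c) := fun v => by
  refine ⟨1, Subtype.ext ?_⟩
  obtain ⟨k, hk⟩ := mem_zpowers_iff.1 v.2
  rw [pow_one, Subgroup.coe_pow, pow_two, ← hk, ← mul_zpow_self_eq C.sq_c k]
  rfl

theorem V_comm_c {v : G} (hv : v ∈ C.V) : Commute v C.c := C.c_central v (C.V_le hv)

theorem zc_le : zpowers C.c ≤ P := zpowers_le.2 C.c_mem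

theorem E_le : C.E ≤ P := sup_le C.V_le C.zc_le

theorem isPGroup_E : IsPGroup 2 ↥C.E :=
  C.isPGroup_V.to_sup_of_normal_right' C.isPGroup_zc (C.V_le.trans C.le_normalizer_zc)

theorem V_le_E : C.V ≤ C.E := le_sup_left

theorem c_mem_E : C.c ∈ C.E := mem_sup_right (mem_zpowers _)

theorem E_ne_bot : C.E ≠ ⊥ := fun h => C.V_ne_bot (le_bot_iff.1 (h ▸ C.V_le_E))

theorem le_normalizer_E : P ≤ normalizer (C.E : Set G) := fun x hx => by
  rw [E]
  exact le_normalizer_sup_aux (C.le_normalizer_V hx) (C.le_normalizer_zc hx)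

theorem normalizer_E : normalizer (C.E : Set G) = P :=
  C.normalizer_eq C.isPGroup_E C.E_ne_bot C.le_normalizer_E

theorem centralizer_c (h : C.c ≠ 1) : centralizer ({C.c} : Set G) = P := by
  have hN : normalizer (zpowers C.c : Set G) = P :=
    C.normalizer_eq C.isPGroup_zc (fun e => h (zpowers_eq_bot.1 e)) C.le_normalizer_zc
  refine le_antisymm (fun x hx => ?_) fun x hx => ?_
  · rw [← hN]
    have hxc : x * C.c = C.c * x := (mem_centralizer_iff.1 hx C.c rfl).symm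
    have hfix : x * C.c * x⁻¹ = C.c := by rw [hxc, mul_inv_cancel_right]
    have hcon : ∀ k : ℤ, x * C.c ^ k * x⁻¹ = C.c ^ k := fun k => by
      rw [← conj_zpow, hfix]
    rw [Subgroup.mem_normalizer_iff]
    intro v
    constructor
    · rintro ⟨k, rfl⟩; exact ⟨k, (hcon k).symm⟩
    · rintro ⟨k, hk⟩
      refine ⟨k, ?_⟩
      simp only at hk
      rw [← hcon k] at hk
      exact mul_left_cancel (mul_right_cancel hk)
  · exact mem_centralizer_iff.2 fun y hy => by
      rw [Set.mem_singleton_iff.1 hy]; exact (C.c_central x hx).eq.symm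

theorem mem_E {x : G} : x ∈ C.E ↔ x ∈ C.V ∨ x * C.c ∈ C.V := by
  constructor
  · intro hx
    obtain ⟨v, hv, k, hk, rfl⟩ : ∃ v ∈ C.V, ∃ k ∈ zpowers C.c, v * k = x := by
      have := coe_mul_of_left_le_normalizer_right C.V (zpowers C.c) (C.V_le.trans C.le_normalizer_zc)
      have hx' : x ∈ (C.V : Set G) * (zpowers C.c : Set G) := by rw [← this]; exact hx
      exact hx'
    rcases mem_zpowers_two C.sq_c hk with rfl | rfl
    · left; simpa using hv
    · right; rw [mul_assoc, C.sq_c, mul_one]; exact hv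
  · rintro (h | h)
    · exact C.V_le_E h
    · have := mul_mem (C.V_le_E h) (inv_mem C.c_mem_E)
      rwa [mul_inv_cancel_right] at this

theorem mem_E_of_commute {x : G} (hx : x ∈ P) (h : ∀ v ∈ C.V, x * v = v * x) : x ∈ C.E := by
  have hK : C.proj ⟨x, hx⟩ ∈ K4 := by
    refine mem_K4.2 (k4_self_centralizing _ fun y hy => ?_)
    have h1 := C.conj_lift ⟨x, hx⟩ y
    have hv : C.lift y ∈ C.V := C.mem_V.2 ⟨y, mem_K4.2 hy, rfl⟩
    rw [show x * C.lift y * x⁻¹ = C.lift y by rw [h _ hv, mul_inv_cancel_right]] at h1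
    exact (mul_inv_eq_iff_eq_mul.1 (C.lift_injective h1).symm)
  have hv : C.lift (C.proj ⟨x, hx⟩) ∈ C.V := C.mem_V.2 ⟨_, hK, rfl⟩
  rcases C.decomp ⟨x, hx⟩ with e | e
  · exact C.mem_E.2 (Or.inl (by rw [show x = _ from e]; exact hv))
  · exact C.mem_E.2 (Or.inr (by rw [show x = _ from e, mul_assoc, C.sq_c, mul_one]; exact hv))

theorem centralizer_V : centralizer (C.V : Set G) = C.E := by
  refine le_antisymm (fun x hx => ?_) fun x hx => ?_
  · have hxN : x ∈ normalizer (C.V : Set G) := centralizer_le_normalizer _ hx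
    rw [C.normalizer_V] at hxN
    exact C.mem_E_of_commute hxN fun v hv => (mem_centralizer_iff.1 hx v hv).symm
  · refine mem_centralizer_iff.2 fun v hv => ?_
    rcases C.mem_E.1 hx with h | h
    · obtain ⟨a, ha, rfl⟩ := C.mem_V.1 h
      obtain ⟨b, hb, rfl⟩ := C.mem_V.1 hv
      rw [← map_mul, ← map_mul, k4_comm a b (mem_K4.1 ha) (mem_K4.1 hb)]
    · obtain ⟨a, ha, hae⟩ := C.mem_V.1 h
      obtain ⟨b, hb, rfl⟩ := C.mem_V.1 hv
      have hxe : x = C.lift a * C.c := by rw [hae, mul_assoc, C.sq_c, mul_one]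
      have hab : C.lift b * C.lift a = C.lift a * C.lift b := by
        rw [← map_mul, ← map_mul, k4_comm a b (mem_K4.1 ha) (mem_K4.1 hb)]
      rw [hxe]
      exact (Commute.mul_right (show Commute (C.lift b) (C.lift a) from hab)
        (C.c_central _ (C.lift_mem b))).eq

theorem exists_conj {v w : G} (hv : v ∈ C.V) (hv1 : v ≠ 1) (hw : w ∈ C.V) (hw1 : w ≠ 1) :
    ∃ g : P4, C.lift g * v * (C.lift g)⁻¹ = w := by
  obtain ⟨a, ha, rfl⟩ := C.mem_V.1 hv
  obtain ⟨b, hb, rfl⟩ := C.mem_V.1 hw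
  obtain ⟨g, hg⟩ := k4_trans a b (mem_K4.1 ha) (fun e => hv1 (by rw [e, map_one]))
    (mem_K4.1 hb) (fun e => hw1 (by rw [e, map_one]))
  exact ⟨g, by rw [← hg, map_mul, map_mul, map_inv]⟩

theorem lift_mem_odd {u : P4} (hu : u ^ 3 = 1) :
    C.lift u ∈ closure {g : G | Odd (orderOf g)} := by
  refine subset_closure ?_
  have h : orderOf (C.lift u) ∣ 3 := orderOf_dvd_of_pow_eq_one (by rw [← map_pow, hu, map_one])
  exact Odd.of_dvd_nat (by decide) h

theorem V_le_odd : C.V ≤ closure {g : G | Odd (orderOf g)} := by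
  intro v hv
  obtain ⟨y, hy, rfl⟩ := C.mem_V.1 hv
  obtain ⟨a, b, ha, hb, rfl⟩ := even_two_cubes y (mem_K4.1 hy).2
  rw [map_mul]
  exact mul_mem (C.lift_mem_odd ha) (C.lift_mem_odd hb)

end Cell

end Cfsg.Agent.H30.ZN
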