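import Cfsg.Agent.H30.ZN.Cell
import Cfsg.Agent.H30.ZN.Basic
import Cfsg.Prelude.Def_JComponents

/-!
Two cells sharing a Sylow 2-subgroup, and the local subgroups of the odd residual (S0518).
-/

set_option autoImplicit false

open Subgroup
open scoped Pointwise

namespace Cfsg.Agent.H30.ZN

variable {G : Type*} [Group G]

namespace Cell

/-- The cell of an isomorphism with `S₄`. -/
noncomputable def ofIso {P : Subgroup G} (h : Cfsg.IsMaximalTwoLocal P) (e : ↥P ≃* P4) : Cell P where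
  maximal := h
  c := 1
  c_mem := one_mem _
  c_central := fun _ _ => Commute.one_right _
  sq_c := one_mul 1
  proj := e.toMonoidHom
  sect := e.symm.toMonoidHom
  proj_sect := fun y => e.apply_symm_apply y
  proj_c := map_one e
  ker := fun x hx => Or.inl (by
    have h1 : x = 1 := e.injective (hx.trans (map_one e).symm)
    rw [h1]; rfl)

/-- The cell of an isomorphism with `S₄ × C₂`. -/
noncomputable def ofIsoProd {P : Subgroup G} (h : Cfsg.IsMaximalTwoLocal P)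
    (e : ↥P ≃* P4 × Multiplicative (ZMod 2)) : Cell P where
  maximal := h
  c := (e.symm (1, Multiplicative.ofAdd 1) : G)
  c_mem := (e.symm (1, Multiplicative.ofAdd 1)).2
  c_central := fun x hx => by
    have h1 : Commute (⟨x, hx⟩ : ↥P) (e.symm (1, Multiplicative.ofAdd 1)) := by
      apply e.injective
      rw [map_mul, map_mul, e.apply_symm_apply]
      exact Prod.ext (by simp) (mul_comm _ _)
    exact congrArg Subtype.val h1
  sq_c := by
    rw [← Subgroup.coe_mul, ← map_mul, show ((1 : P4), Multiplicative.ofAdd (1 : ZMod 2)) *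
      (1, Multiplicative.ofAdd (1 : ZMod 2)) = 1 by decide, map_one]
    rfl
  proj := (MonoidHom.fst P4 (Multiplicative (ZMod 2))).comp e.toMonoidHom
  sect := e.symm.toMonoidHom.comp (MonoidHom.inl P4 (Multiplicative (ZMod 2)))
  proj_sect := fun y => by simp
  proj_c := by simp
  ker := fun x hx => by
    have h2 : ∀ b : Multiplicative (ZMod 2), b = 1 ∨ b = Multiplicative.ofAdd 1 := by decide
    have h1 : (e x).1 = 1 := hx
    rcases h2 (e x).2 with h3 | h3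
    · left
      rw [show x = 1 from e.injective ((Prod.ext h1 h3 : e x = 1).trans (map_one e).symm)]
      rfl
    · right
      exact congrArg Subtype.val (e.eq_symm_apply.2 (Prod.ext h1 h3))

theorem ofIsoProd_c_ne {P : Subgroup G} (h : Cfsg.IsMaximalTwoLocal P)
    (e : ↥P ≃* P4 × Multiplicative (ZMod 2)) : (ofIsoProd h e).c ≠ 1 := by
  intro hc
  have h1 : e.symm (1, Multiplicative.ofAdd 1) = 1 := Subtype.ext hc
  have h2 := congrArg e h1
  rw [e.apply_symm_apply] at h2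
  have h3 : Multiplicative.ofAdd (1 : ZMod 2) = 1 := congrArg Prod.snd (h2.trans (map_one e))
  exact absurd h3 (by decide)

end Cell

/-- A 2-subgroup of `P` normalised by a Sylow 2-subgroup of `P` lies in it. -/
theorem le_of_sylowTwoIn [Finite G] {T P Q : Subgroup G} (hT : Cfsg.IsSylowTwoIn T P) (hQ : IsPGroup 2 ↥Q)
    (hQP : Q ≤ P) (hn : T ≤ normalizer (Q : Set G)) : Q ≤ T := by
  haveI : Fact (Nat.Prime 2) := ⟨Nat.prime_two⟩
  have hS : IsPGroup 2 ↥(T ⊔ Q) := hT.2.1.to_sup_of_normal_right' hQ hn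
  have h1 : T.relIndex (T ⊔ Q) ∣ T.relIndex P := Dvd.intro _ (relIndex_mul_relIndex T _ P le_sup_left (sup_le hT.1 hQP))
  obtain ⟨k, hk⟩ := hS.index (T.subgroupOf (T ⊔ Q))
  have hk' : T.relIndex (T ⊔ Q) = 2 ^ k := hk
  have h2 : Odd (2 ^ k) := Odd.of_dvd_nat hT.2.2 (hk' ▸ h1)
  rcases Nat.eq_zero_or_pos k with rfl | hpos
  · exact le_sup_right.trans (relIndex_eq_one.1 (by rw [hk', pow_zero]))
  · exact absurd (dvd_pow_self 2 hpos.ne') h2.not_two_dvd_nat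

/-- Two different cells sharing a Sylow 2-subgroup. -/
structure Two (P₁ P₂ T : Subgroup G) where
  C₁ : Cell P₁
  C₂ : Cell P₂
  ne : P₁ ≠ P₂
  syl₁ : Cfsg.IsSylowTwoIn T P₁
  syl₂ : Cfsg.IsSylowTwoIn T P₂

namespace Two

variable [Finite G] {P₁ P₂ T : Subgroup G} (X : Two P₁ P₂ T)

/-- The pair in the opposite order. -/
def swap : Two P₂ P₁ T := ⟨X.C₂, X.C₁, X.ne.symm, X.syl₂, X.syl₁⟩

theorem E_le_T : X.C₁.E ≤ T :=
  le_of_sylowTwoIn X.syl₁ X.C₁.isPGroup_E X.C₁.E_le (X.syl₁.1.trans X.C₁.le_normalizer_E)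

theorem V_le_T : X.C₁.V ≤ T := X.C₁.V_le_E.trans X.E_le_T

theorem c_mem_T : X.C₁.c ∈ T := X.E_le_T X.C₁.c_mem_E

theorem V₂_le_T : X.C₂.V ≤ T := X.swap.V_le_T

theorem c₂_mem_E₁ : X.C₂.c ∈ X.C₁.E :=
  X.C₁.mem_E_of_commute (X.syl₁.1 X.swap.c_mem_T) fun v hv =>
    (X.C₂.c_central v (X.syl₂.1 (X.V_le_T hv))).eq.symm

theorem E_ne : X.C₁.E ≠ X.C₂.E := fun h => by
  have h1 := X.C₁.normalizer_E
  rw [h, X.C₂.normalizer_E] at h1
  exact X.ne h1.symm

theorem V₂_not_le : ¬ X.C₂.V ≤ X.C₁.E := fun h => by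
  refine X.E_ne (le_antisymm ?_ (sup_le h (zpowers_le.2 X.c₂_mem_E₁)))
  refine sup_le ?_ (zpowers_le.2 X.swap.c₂_mem_E₁)
  rw [← X.C₂.centralizer_V]
  intro v hv
  refine mem_centralizer_iff.2 fun w hw => ?_
  have := h hw
  rw [← X.C₁.centralizer_V] at this
  exact (mem_centralizer_iff.1 this v hv).symm

theorem T_le_normalizer : T ≤ normalizer (X.C₁.V : Set G) := X.syl₁.1.trans X.C₁.le_normalizer_V

theorem commutator_mem {a b : G} (ha : a ∈ X.C₁.V) (hb : b ∈ X.C₂.V) :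
    a * b * a * b ∈ X.C₁.V ⊓ X.C₂.V := by
  have hbb : b⁻¹ = b := inv_eq_of_mul_eq_one_right (X.C₂.sq_V hb)
  have haa : a⁻¹ = a := inv_eq_of_mul_eq_one_right (X.C₁.sq_V ha)
  refine ⟨?_, ?_⟩
  · have h := mul_mem ha (X.C₁.conj_mem (X.syl₁.1 (X.V₂_le_T hb)) ha)
    rw [hbb] at h
    simpa [mul_assoc] using h
  · have h := mul_mem (X.C₂.conj_mem (X.syl₂.1 (X.V_le_T ha)) hb) hb
    rw [haa] at h
    exact h

theorem exists_z : ∃ z : G, orderOf z = 2 ∧ X.C₁.V ⊓ X.C₂.V = zpowers z ∧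
    ∀ t ∈ T, Commute t z := by
  have hne : X.C₁.V ⊓ X.C₂.V ≠ ⊥ := fun h0 => X.V₂_not_le fun b hb => by
    rw [← X.C₁.centralizer_V]
    refine mem_centralizer_iff.2 fun a ha => ?_
    have h := X.commutator_mem ha hb
    rw [h0, mem_bot] at h
    calc a * b = (a * b * a * b) * (b⁻¹ * a⁻¹) := by group
      _ = b * a := by
        rw [h, one_mul, inv_eq_of_mul_eq_one_right (X.C₂.sq_V hb),
          inv_eq_of_mul_eq_one_right (X.C₁.sq_V ha)]
  obtain ⟨z, hz, hz1⟩ := (Subgroup.bot_or_exists_ne_one _).resolve_left hne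
  have hz2 : orderOf z = 2 :=
    orderOf_eq_prime (by rw [pow_two]; exact X.C₁.sq_V hz.1) hz1
  have hle : X.C₁.V ⊓ X.C₂.V ≤ X.C₁.V := inf_le_left
  have hcard : Nat.card ↥(X.C₁.V ⊓ X.C₂.V) = 2 := by
    have hd := card_dvd_of_le hle
    rw [X.C₁.card_V] at hd
    have h2 : 2 ≤ Nat.card ↥(X.C₁.V ⊓ X.C₂.V) := by
      have h1 := card_dvd_of_le (zpowers_le.2 hz)
      rw [Nat.card_zpowers, hz2] at h1
      exact Nat.le_of_dvd Nat.card_pos h1
    have h4 : Nat.card ↥(X.C₁.V ⊓ X.C₂.V) ≠ 4 := fun e => X.V₂_not_le (by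
      have e1 : X.C₁.V ⊓ X.C₂.V = X.C₁.V := eq_of_le_of_card_ge hle (by rw [e, X.C₁.card_V])
      have e2 : X.C₁.V ⊓ X.C₂.V = X.C₂.V :=
        eq_of_le_of_card_ge inf_le_right (by rw [e, X.C₂.card_V])
      rw [← e2, e1]
      exact X.C₁.V_le_E)
    have := Nat.le_of_dvd (by norm_num) hd
    interval_cases hk : Nat.card ↥(X.C₁.V ⊓ X.C₂.V) <;> omega
  have heq : X.C₁.V ⊓ X.C₂.V = zpowers z :=
    (eq_of_le_of_card_ge (zpowers_le.2 hz) (by rw [Nat.card_zpowers, hz2, hcard])).symm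
  refine ⟨z, hz2, heq, fun t ht => ?_⟩
  have hmem : t * z * t⁻¹ ∈ zpowers z :=
    heq ▸ ⟨X.C₁.conj_mem (X.syl₁.1 ht) hz.1, X.C₂.conj_mem (X.syl₂.1 ht) hz.2⟩
  rcases mem_zpowers_two (X.C₁.sq_V hz.1) hmem with h | h
  · exact absurd (conj_eq_one_iff.1 h) hz1
  · exact mul_inv_eq_iff_eq_mul.1 h

theorem c_notMem_sup (h : X.C₁.c ≠ 1) (hV : X.C₁.c ∉ X.C₁.V) : X.C₁.c ∉ X.C₁.V ⊔ X.C₂.V := by
  intro hc
  obtain ⟨z, -, hz, -⟩ := X.exists_z
  have hn : X.C₂.V ≤ normalizer (X.C₁.V : Set G) := X.V₂_le_T.trans X.T_le_normalizer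
  have hco := coe_mul_of_right_le_normalizer_left X.C₁.V X.C₂.V hn
  have hc' : X.C₁.c ∈ (X.C₁.V : Set G) * (X.C₂.V : Set G) := by rw [← hco]; exact hc
  obtain ⟨a, ha, b, hb, hab⟩ := hc'
  simp only at hab
  by_cases hbz : b ∈ X.C₁.V
  · exact hV (hab ▸ mul_mem ha hbz)
  apply X.V₂_not_le
  have hbE : b ∈ X.C₁.E := by
    have hb' := mul_mem (inv_mem (X.C₁.V_le_E ha)) X.C₁.c_mem_E
    rwa [← hab, inv_mul_cancel_left] at hb'
  have hlt : zpowers z < X.C₂.V ⊓ X.C₁.E := by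
    refine lt_of_le_of_ne ?_ fun e => hbz ?_
    · exact le_inf (hz ▸ inf_le_right) ((hz ▸ inf_le_left : zpowers z ≤ X.C₁.V).trans X.C₁.V_le_E)
    · have : b ∈ zpowers z := e ▸ (⟨hb, hbE⟩ : b ∈ X.C₂.V ⊓ X.C₁.E)
      rw [← hz] at this
      exact this.1
  have h1 := card_dvd_of_le (inf_le_left : X.C₂.V ⊓ X.C₁.E ≤ X.C₂.V)
  have h2 := card_dvd_of_le hlt.le
  have h3 : Nat.card ↥(zpowers z) ≠ Nat.card ↥(X.C₂.V ⊓ X.C₁.E) := fun e =>
    hlt.ne (eq_of_le_of_card_ge hlt.le e.ge)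
  rw [X.C₂.card_V] at h1
  have hz2 : orderOf z = 2 := by
    obtain ⟨z', hz'2, hz', -⟩ := X.exists_z
    rw [← Nat.card_zpowers, ← hz, hz', Nat.card_zpowers, hz'2]
  rw [Nat.card_zpowers, hz2] at h2 h3
  have h4 : Nat.card ↥(X.C₂.V ⊓ X.C₁.E) = 4 := by
    have := Nat.le_of_dvd (by norm_num) h1
    interval_cases hk : Nat.card ↥(X.C₂.V ⊓ X.C₁.E) <;> omega
  have h5 : X.C₂.V ⊓ X.C₁.E = X.C₂.V :=
    eq_of_le_of_card_ge inf_le_left (by rw [h4, X.C₂.card_V])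
  exact h5 ▸ inf_le_right

theorem card_sup [Fact (Nat.Prime 2)] : 8 ≤ Nat.card ↥(X.C₁.V ⊔ X.C₂.V) := by
  have hle : X.C₁.V ≤ X.C₁.V ⊔ X.C₂.V := le_sup_left
  have hne : X.C₁.V ≠ X.C₁.V ⊔ X.C₂.V := fun e =>
    X.V₂_not_le ((e ▸ le_sup_right : X.C₂.V ≤ X.C₁.V).trans X.C₁.V_le_E)
  have h1 := card_dvd_of_le hle
  rw [X.C₁.card_V] at h1
  obtain ⟨m, hm⟩ := h1
  have hpos : 0 < Nat.card ↥(X.C₁.V ⊔ X.C₂.V) := Nat.card_pos
  have hm1 : m ≠ 1 := fun e => hne (eq_of_le_of_card_ge hle (by rw [X.C₁.card_V]; omega))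
  omega

theorem sup_le_T : X.C₁.V ⊔ X.C₂.V ≤ T := sup_le X.V_le_T X.V₂_le_T

theorem sup_le_odd : X.C₁.V ⊔ X.C₂.V ≤ closure {g : G | Odd (orderOf g)} :=
  sup_le X.C₁.V_le_odd X.C₂.V_le_odd

theorem conj_z {z v : G} (hz : orderOf z = 2) (hzV : X.C₁.V ⊓ X.C₂.V = zpowers z)
    (hv : v ∈ X.C₁.V) (hv1 : v ≠ 1) : IsConj z v := by
  have hzm : z ∈ X.C₁.V := (hzV ▸ mem_zpowers z : z ∈ X.C₁.V ⊓ X.C₂.V).1
  obtain ⟨g, hg⟩ := X.C₁.exists_conj hzm (fun e => by rw [e, orderOf_one] at hz; omega) hv hv1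
  exact isConj_iff.2 ⟨_, hg⟩

theorem not_commute {z : G} (hz : orderOf z = 2) (hzV : X.C₁.V ⊓ X.C₂.V = zpowers z)
    (hzT : ∀ t ∈ T, Commute t z) : ∀ a ∈ X.C₁.V, a ∉ zpowers z → ∀ b ∈ X.C₂.V, b ∉ zpowers z →
      b * a = a * b * z := by
  intro a ha haz b hb hbz
  have hbb : b⁻¹ = b := inv_eq_of_mul_eq_one_right (X.C₂.sq_V hb)
  have haa : a⁻¹ = a := inv_eq_of_mul_eq_one_right (X.C₁.sq_V ha)
  have hbT : b ∈ T := X.V₂_le_T hb
  have hk := X.commutator_mem ha hb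
  rw [hzV] at hk
  have hzz : z * z = 1 := by rw [← pow_two, ← hz, pow_orderOf_eq_one]
  rcases mem_zpowers_two hzz hk with h | h
  · exfalso
    have hcomm : a * b = b * a := by
      calc a * b = (a * b * a * b) * (b⁻¹ * a⁻¹) := by group
        _ = b * a := by rw [h, one_mul, hbb, haa]
    apply X.V₂_not_le
    have hzle : zpowers z ≤ X.C₁.V := hzV ▸ inf_le_left
    have hbE : b ∈ X.C₁.E := by
      refine X.C₁.mem_E_of_commute (X.syl₁.1 hbT) fun v hv => ?_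
      have hv' : v ∈ zpowers z ⊔ zpowers a := by
        have hle : zpowers z ⊔ zpowers a ≤ X.C₁.V := sup_le hzle (zpowers_le.2 ha)
        suffices e : zpowers z ⊔ zpowers a = X.C₁.V by rw [e]; exact hv
        refine eq_of_le_of_card_ge hle ?_
        have hlt : zpowers z ≠ zpowers z ⊔ zpowers a := fun e =>
          haz (by rw [e]; exact mem_sup_right (mem_zpowers a))
        have h1 := card_dvd_of_le hle
        have h2 := card_dvd_of_le (le_sup_left : zpowers z ≤ zpowers z ⊔ zpowers a)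
        have h3 : Nat.card ↥(zpowers z) ≠ Nat.card ↥(zpowers z ⊔ zpowers a) := fun e =>
          hlt (eq_of_le_of_card_ge le_sup_left e.ge)
        rw [X.C₁.card_V] at h1 ⊢
        rw [Nat.card_zpowers, hz] at h2 h3
        have := Nat.le_of_dvd (by norm_num) h1
        interval_cases hk : Nat.card ↥(zpowers z ⊔ zpowers a) <;> omega
      have hb' : zpowers z ⊔ zpowers a ≤ centralizer ({b} : Set G) := by
        refine sup_le (zpowers_le.2 ?_) (zpowers_le.2 ?_) <;>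
          refine mem_centralizer_iff.2 fun y hy => ?_ <;> rw [Set.mem_singleton_iff.1 hy]
        · exact (hzT b hbT).eq
        · exact hcomm.symm
      exact mem_centralizer_iff.1 (hb' hv') b rfl
    have hlt : zpowers z ⊔ zpowers b ≤ X.C₂.V :=
      sup_le (hzV ▸ inf_le_right) (zpowers_le.2 hb)
    have hne : zpowers z ≠ zpowers z ⊔ zpowers b := fun e =>
      hbz (by rw [e]; exact mem_sup_right (mem_zpowers b))
    have h1 := card_dvd_of_le hlt
    have h2 := card_dvd_of_le (le_sup_left : zpowers z ≤ zpowers z ⊔ zpowers b)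
    have h3 : Nat.card ↥(zpowers z) ≠ Nat.card ↥(zpowers z ⊔ zpowers b) := fun e =>
      hne (eq_of_le_of_card_ge le_sup_left e.ge)
    rw [X.C₂.card_V] at h1
    rw [Nat.card_zpowers, hz] at h2 h3
    have h4 : zpowers z ⊔ zpowers b = X.C₂.V := by
      refine eq_of_le_of_card_ge hlt ?_
      rw [X.C₂.card_V]
      have := Nat.le_of_dvd (by norm_num) h1
      interval_cases hk : Nat.card ↥(zpowers z ⊔ zpowers b) <;> omega
    rw [← h4]
    exact sup_le (hzle.trans X.C₁.V_le_E) (zpowers_le.2 hbE)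
  · have hz' : z = a * b * a * b := h.symm
    rw [hz']
    calc b * a = a * b * (b⁻¹ * a⁻¹ * b * a) := by group
      _ = a * b * (b * a * b * a) := by rw [hbb, haa]
      _ = a * b * z⁻¹ := by rw [hz', mul_inv_rev, mul_inv_rev, mul_inv_rev, hbb, haa]; group
      _ = a * b * (a * b * a * b) := by rw [inv_eq_of_mul_eq_one_right hzz, hz']

end Two

end Cfsg.Agent.H30.ZN
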