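import Cfsg.Agent.H30.ZN.Pair

/-!
The locals of the odd residual attached to cells (S0518).
-/

set_option autoImplicit false

open Subgroup

namespace Cfsg.Agent.H30.ZN

variable {G : Type*} [Group G] {P : Subgroup G} (C : Cell P) {H : Subgroup G}
  (hH : H = closure {g : G | Odd (orderOf g)}) (hc : C.c ∈ H → C.c = 1)
  {b : G} (hb : b ∈ P) (hbH : b ∈ H) (hb2 : b * b = 1) (hbE : b ∉ C.E)

namespace Cell

/-- The projection of `P ∩ H`. -/
def projH (H : Subgroup G) : ↥(P.subgroupOf H) →* P4 :=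
  C.proj.comp
    { toFun := fun x => (⟨((x : ↥H) : G), x.2⟩ : ↥P)
      map_one' := rfl
      map_mul' := fun _ _ => rfl }

include hc in
theorem projH_injective : Function.Injective (C.projH H) := by
  rw [injective_iff_map_eq_one]
  intro x hx
  rcases C.ker _ hx with h | h
  · exact Subtype.ext (Subtype.ext h)
  · have h' : ((x : ↥H) : G) = C.c := h
    have hcH : C.c ∈ H := h' ▸ (x : ↥H).2
    exact Subtype.ext (Subtype.ext (h'.trans (hc hcH)))

include hH hb hbH hb2 hbE in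
theorem projH_surjective : Function.Surjective (C.projH H) := by
  rw [← MonoidHom.range_eq_top]
  have hcube : ∀ u : P4, u ^ 3 = 1 → u ∈ (C.projH H).range := fun u hu => by
    have h1 : C.lift u ∈ H := by rw [hH]; exact C.lift_mem_odd hu
    refine ⟨⟨⟨C.lift u, h1⟩, C.lift_mem u⟩, ?_⟩
    exact C.proj_sect u
  have hwR : C.proj ⟨b, hb⟩ ∈ (C.projH H).range := ⟨⟨⟨b, hbH⟩, hb⟩, rfl⟩
  have hw2 : C.proj ⟨b, hb⟩ * C.proj ⟨b, hb⟩ = 1 := by
    rw [← map_mul, show (⟨b, hb⟩ * ⟨b, hb⟩ : ↥P) = 1 from Subtype.ext hb2, map_one]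
  have hodd : Equiv.Perm.sign (C.proj ⟨b, hb⟩) ≠ 1 := fun h => by
    have hK : C.proj ⟨b, hb⟩ ∈ K4 := mem_K4.2 ⟨hw2, h⟩
    have hv : C.lift (C.proj ⟨b, hb⟩) ∈ C.V := C.mem_V.2 ⟨_, hK, rfl⟩
    rcases C.decomp ⟨b, hb⟩ with e | e
    · exact hbE (C.V_le_E ((show b = _ from e) ▸ hv))
    · exact hbE ((show b = _ from e) ▸ mul_mem (C.V_le_E hv) C.c_mem_E)
  exact eq_top_of_cubes hcube hwR hodd

include hH in
theorem V_le_H : C.V ≤ H := hH ▸ C.V_le_odd

include hH hc in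
theorem E_inf_le : C.E ⊓ H ≤ C.V := by
  rintro x ⟨hxE, hxH⟩
  replace hxH : x ∈ H := hxH
  rcases C.mem_E.1 hxE with h | h
  · exact h
  · have hcH : C.c ∈ H := by
      have h1 := mul_mem (inv_mem hxH) (C.V_le_H hH h)
      rwa [inv_mul_cancel_left] at h1
    rwa [hc hcH, mul_one] at h

include hH hc hb hbH hb2 hbE in
/-- A 2-subgroup of `H` normalised by `P ∩ H` is the four-group. -/
theorem eq_V [Finite G] {Q : Subgroup G} (hQ : IsPGroup 2 ↥Q) (hQ1 : Q ≠ ⊥) (hQH : Q ≤ H)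
    (hn : P ⊓ H ≤ normalizer (Q : Set G)) : Q = C.V := by
  haveI : Fact (Nat.Prime 2) := ⟨Nat.prime_two⟩
  have hVP : C.V ≤ P ⊓ H := le_inf C.V_le (C.V_le_H hH)
  obtain ⟨x, hx, hx1⟩ := (Subgroup.bot_or_exists_ne_one _).resolve_left
    (H33.inf_centralizer_ne_bot C.isPGroup_V hQ hQ1 (hVP.trans hn))
  have hxE : x ∈ C.E := C.centralizer_V ▸ hx.2
  have hxV : x ∈ C.V := C.E_inf_le hH hc ⟨hxE, hQH hx.1⟩
  have hsurj := C.projH_surjective hH hb hbH hb2 hbE
  have hVQ : C.V ≤ Q := fun v hv => by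
    by_cases hv1 : v = 1
    · rw [hv1]; exact one_mem _
    obtain ⟨g, hg⟩ := C.exists_conj hxV hx1 hv hv1
    obtain ⟨⟨⟨m, hmH⟩, hmP⟩, hm⟩ := hsurj g
    obtain ⟨a, -, rfl⟩ := C.mem_V.1 hxV
    have hm' : C.proj ⟨m, hmP⟩ = g := hm
    have h1 := C.conj_lift ⟨m, hmP⟩ a
    rw [hm', map_mul, map_mul, map_inv, hg] at h1
    rw [← h1]
    exact (mem_normalizer_iff.1 (hn ⟨hmP, hmH⟩) _).1 hx.1
  have hNV : ∀ q ∈ Q, q ∈ P → q ∈ C.V := fun q hq hqP => by
    refine C.E_inf_le hH hc ⟨?_, hQH hq⟩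
    have hpow : ∀ r : ↥P, (r : G) ∈ Q → (C.proj r) ^ 4 = 1 := fun r hr => by
      obtain ⟨k, hk⟩ := hQ ⟨r, hr⟩
      refine pow_four_of_two_power (k := k) ?_
      rw [← map_pow, show r ^ (2 ^ k) = 1 from Subtype.ext (by
        have := congrArg Subtype.val hk
        simpa using this), map_one]
    have hK : C.proj ⟨q, hqP⟩ ∈ K4 := by
      refine mem_K4.2 (core_criterion _ (hpow _ hq) fun g => ?_)
      obtain ⟨⟨⟨m, hmH⟩, hmP⟩, hm⟩ := hsurj g
      have hm' : C.proj ⟨m, hmP⟩ = g := hm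
      rw [← hm', ← map_inv, ← map_mul, ← map_mul, ← map_mul]
      exact hpow _ (mul_mem hq ((mem_normalizer_iff.1 (hn ⟨hmP, hmH⟩) q).1 hq))
    have hv : C.lift (C.proj ⟨q, hqP⟩) ∈ C.V := C.mem_V.2 ⟨_, hK, rfl⟩
    rcases C.decomp ⟨q, hqP⟩ with e | e
    · exact (show q = _ from e) ▸ C.V_le_E hv
    · exact (show q = _ from e) ▸ mul_mem (C.V_le_E hv) C.c_mem_E
  refine le_antisymm ?_ hVQ
  have := hQ.isNilpotent
  have htop : C.V.subgroupOf Q = ⊤ := by
    refine normalizerCondition_iff_only_full_group_self_normalizing.1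
      Group.normalizerCondition_of_isNilpotent _ ?_
    refine le_antisymm (fun y hy => ?_) Subgroup.le_normalizer
    rw [← subgroupOf_normalizer_eq hVQ, mem_subgroupOf, C.normalizer_V] at hy
    exact mem_subgroupOf.2 (hNV _ y.2 hy)
  exact subgroupOf_eq_top.1 htop

include hH hc hb hbH hb2 hbE in
theorem isMaximalTwoLocal_subgroupOf [Finite G] : Cfsg.IsMaximalTwoLocal (P.subgroupOf H) := by
  have hV := C.V_le_H hH
  refine ⟨⟨C.V.subgroupOf H, C.isPGroup_V.of_equiv (subgroupOfEquivOfLe hV).symm, fun h => ?_, ?_⟩, ?_⟩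
  · exact C.V_ne_bot (by rw [← map_subgroupOf_eq_of_le hV, h, Subgroup.map_bot])
  · rw [← subgroupOf_normalizer_eq hV, C.normalizer_V]
  rintro N ⟨Q, hQ, hQ1, rfl⟩ hle
  refine le_antisymm ?_ hle
  have hne : Q.map H.subtype ≠ ⊥ := fun h =>
    hQ1 ((map_eq_bot_iff_of_injective _ H.subtype_injective).1 h)
  have hn : P ⊓ H ≤ normalizer ((Q.map H.subtype : Subgroup G) : Set G) := fun x hx =>
    Subgroup.le_normalizer_map H.subtype ⟨⟨x, hx.2⟩, hle hx.1, rfl⟩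
  have hQV := C.eq_V hH hc hb hbH hb2 hbE (hQ.map H.subtype) hne (Subgroup.map_subtype_le Q) hn
  have hQ' : Q = C.V.subgroupOf H := by
    rw [← hQV, Subgroup.subgroupOf, comap_map_eq_self_of_injective H.subtype_injective]
  rw [hQ', ← subgroupOf_normalizer_eq hV, C.normalizer_V]

include hH hc hb hbH hb2 hbE in
theorem nonempty_iso : Nonempty (↥(P.subgroupOf H) ≃* Equiv.Perm (Fin 4)) :=
  ⟨MulEquiv.ofBijective (C.projH H) ⟨C.projH_injective hc, C.projH_surjective hH hb hbH hb2 hbE⟩⟩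

end Cell

end Cfsg.Agent.H30.ZN
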